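import Mathlib
import Cfsg.Agent.Lib.Transv.Conj
import Cfsg.Agent.Lib.ClassMax.Transv

/-! Counting transvections and the order of their centralisers in `GL_n(q)`. -/

set_option autoImplicit false
set_option linter.unusedSectionVars false
set_option linter.unusedSimpArgs false
set_option linter.unusedVariables false

namespace Cfsg.Agent.Lib.Transv

open Module Matrix

variable {F : Type*} {ι : Type} [Field F] [Fintype ι] [DecidableEq ι]

/-- Uniqueness of the outer product decomposition. -/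
theorem vecMulVec_eq_imp {F ι : Type*} [Field F] {a b a' b' : ι → F} (ha : a ≠ 0) (hb : b ≠ 0)
    (h : vecMulVec a b = vecMulVec a' b') : ∃ c : F, c ≠ 0 ∧ a' = c • a ∧ b' = c⁻¹ • b := by
  obtain ⟨k, hk⟩ := Function.ne_iff.1 ha
  obtain ⟨j, hj⟩ := Function.ne_iff.1 hb
  simp only [Pi.zero_apply] at hk hj
  have hent : ∀ i l, a i * b l = a' i * b' l := by
    intro i l
    have := congrFun (congrFun h i) l
    simpa [vecMulVec_apply] using this
  have hk' : a' k ≠ 0 := by
    intro h0
    have := hent k j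
    rw [h0, zero_mul] at this
    exact mul_ne_zero hk hj this
  have hj' : b' j ≠ 0 := by
    intro h0
    have := hent k j
    rw [h0, mul_zero] at this
    exact mul_ne_zero hk hj this
  have hb0 : b j / b' j ≠ 0 := div_ne_zero hj hj'
  refine ⟨b j / b' j, hb0, ?_, ?_⟩
  · funext i
    have := hent i j
    simp only [Pi.smul_apply, smul_eq_mul]
    field_simp
    linear_combination -this
  · funext l
    have h1 := hent k l
    have h2 : a' k = (b j / b' j) * a k := by
      have := hent k j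
      field_simp
      linear_combination -this
    rw [h2] at h1
    simp only [Pi.smul_apply, smul_eq_mul, inv_div]
    have h3 : b l = (b j / b' j) * b' l := by
      have : a k * b l = a k * ((b j / b' j) * b' l) := by rw [h1]; ring
      exact mul_left_cancel₀ hk this
    rw [h3]
    field_simp

/-- The set of vector/functional pairs defining transvections. -/
abbrev PairSet (ι : Type) (F : Type*) [Field F] [Fintype ι] :=
  {p : (ι → F) × (ι → F) // p.1 ≠ 0 ∧ p.2 ≠ 0 ∧ p.2 ⬝ᵥ p.1 = 0}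

/-- The transvection of a pair. -/
noncomputable def pairTv (p : PairSet ι F) : GL ι F :=
  Cfsg.Agent.Lib.ClassMax.tv p.1.1 p.1.2 p.2.2.2

theorem card_pairSet [Fintype F] {q : ℕ} (hF : Fintype.card F = q) {n : ℕ} (hn : 1 ≤ n) (hι : Fintype.card ι = n) :
    Nat.card (PairSet ι F) = (q ^ n - 1) * (q ^ (n - 1) - 1) := by
  classical
  rw [Nat.card_eq_fintype_card]
  have hfib : ∀ b : ι → F, b ≠ 0 → (Finset.univ.filter (fun a : ι → F => a ≠ 0 ∧ b ⬝ᵥ a = 0)).card = q ^ (n - 1) - 1 := by
    intro b hb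
    have h1 : Finset.univ.filter (fun a : ι → F => a ≠ 0 ∧ b ⬝ᵥ a = 0) =
        (Finset.univ.filter (fun a : ι → F => b ⬝ᵥ a = 0)).erase 0 := by
      ext a
      simp [and_comm]
    rw [h1, Finset.card_erase_of_mem (by simp)]
    congr 1
    -- kernel of the functional
    have h2 : LinearMap.range (dotL b) = ⊤ := by
      rw [LinearMap.range_eq_top]
      apply LinearMap.surjective_of_ne_zero
      exact dotL_ne_zero hb
    have h3 := LinearMap.finrank_range_add_finrank_ker (dotL b)
    rw [h2] at h3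
    simp only [finrank_top, finrank_self, finrank_fintype_fun_eq_card, hι] at h3
    have h4 : Fintype.card (LinearMap.ker (dotL b)) = q ^ (n - 1) := by
      rw [Module.card_eq_pow_finrank (K := F), hF]
      congr 1
      omega
    rw [← h4, Fintype.card_subtype]
    apply congrArg
    ext a
    simp [LinearMap.mem_ker]
  have hcardV : (Finset.univ.filter (fun b : ι → F => b ≠ 0)).card = q ^ n - 1 := by
    have h1 : Finset.univ.filter (fun b : ι → F => b ≠ 0) = Finset.univ.erase 0 := by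
      ext a; simp
    rw [h1, Finset.card_erase_of_mem (Finset.mem_univ _), Finset.card_univ, Fintype.card_fun, hF, hι]
  have h1 : Fintype.card (PairSet ι F) =
      ((Finset.univ.filter (fun b : ι → F => b ≠ 0)).sigma
        (fun b => Finset.univ.filter (fun a : ι → F => a ≠ 0 ∧ b ⬝ᵥ a = 0))).card := by
    rw [Fintype.card_subtype]
    refine Finset.card_bij' (fun p _ => ⟨p.2, p.1⟩) (fun p _ => (p.2, p.1)) ?_ ?_ ?_ ?_
    · intro p hp
      simp only [Finset.mem_filter, Finset.mem_univ, true_and] at hp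
      simp [hp]
    · intro p hp
      simp only [Finset.mem_sigma, Finset.mem_filter, Finset.mem_univ, true_and] at hp
      simp [hp]
    · intro p _
      rfl
    · intro p _
      rfl
  rw [h1, Finset.card_sigma, Finset.sum_congr rfl (fun b hb => hfib b (by simpa using hb)), Finset.sum_const, hcardV,
    smul_eq_mul]

/-- The fibres of `pairTv` have `q - 1` elements. -/
theorem card_fiber_pairTv [Fintype F] (p₀ : PairSet ι F) :
    Nat.card {p : PairSet ι F // pairTv p = pairTv p₀} = Fintype.card F - 1 := by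
  classical
  rw [← Fintype.card_units, Nat.card_eq_fintype_card]
  symm
  obtain ⟨⟨a₀, b₀⟩, ha₀, hb₀, hab₀⟩ := p₀
  simp only at ha₀ hb₀ hab₀
  have hmem : ∀ c : Fˣ, ((c : F) • a₀) ≠ 0 ∧ (((c : F)⁻¹ • b₀) ≠ 0) ∧ ((c : F)⁻¹ • b₀) ⬝ᵥ ((c : F) • a₀) = 0 := by
    intro c
    refine ⟨smul_ne_zero c.ne_zero ha₀, smul_ne_zero (inv_ne_zero c.ne_zero) hb₀, ?_⟩
    rw [smul_dotProduct, dotProduct_smul, hab₀]
    simp
  have hval : ∀ (p q : PairSet ι F), pairTv p = pairTv q ↔ vecMulVec p.1.1 p.1.2 = vecMulVec q.1.1 q.1.2 := by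
    intro p q
    constructor
    · intro h
      have h2 := congrArg (fun g : GL ι F => (g : Matrix ι ι F)) h
      simpa [pairTv, Cfsg.Agent.Lib.ClassMax.tvMat] using h2
    · intro h
      exact Cfsg.Agent.Lib.ClassMax.tv_eq_of_vecMulVec_eq _ _ h
  apply Fintype.card_of_bijective (f := fun c : Fˣ =>
    (⟨⟨⟨(c : F) • a₀, (c : F)⁻¹ • b₀⟩, hmem c⟩, by
      rw [hval]
      ext i j
      simp only [vecMulVec_apply, Pi.smul_apply, smul_eq_mul]
      have := c.ne_zero
      field_simp⟩ : {p : PairSet ι F // pairTv p = pairTv ⟨⟨a₀, b₀⟩, ha₀, hb₀, hab₀⟩}))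
  constructor
  · intro c d hcd
    have h1 := congrArg (fun x => x.1.1.1) hcd
    simp only at h1
    obtain ⟨k, hk⟩ := Function.ne_iff.1 ha₀
    have h2 := congrFun h1 k
    simp only [Pi.smul_apply, smul_eq_mul, Pi.zero_apply] at h2 hk
    exact Units.ext (mul_right_cancel₀ hk h2)
  · rintro ⟨⟨⟨a, b⟩, ha, hb, hab⟩, hp⟩
    rw [hval] at hp
    simp only at hp
    obtain ⟨c, hc, h1, h2⟩ := vecMulVec_eq_imp ha₀ hb₀ hp.symm
    refine ⟨Units.mk0 c hc, ?_⟩
    apply Subtype.ext
    apply Subtype.ext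
    simp only [Units.val_mk0]
    rw [h1, h2]

/-- All pair-transvections form a single conjugacy class. -/
theorem orbit_pairTv [Fintype F] (p₀ : PairSet ι F) :
    MulAction.orbit (ConjAct (GL ι F)) (pairTv p₀) = Set.range (pairTv (ι := ι) (F := F)) := by
  classical
  ext x
  rw [MulAction.mem_orbit_iff]
  constructor
  · rintro ⟨g, rfl⟩
    obtain ⟨⟨a₀, b₀⟩, ha₀, hb₀, hab₀⟩ := p₀
    simp only at ha₀ hb₀ hab₀
    set g' : GL ι F := ConjAct.ofConjAct g with hg'
    obtain ⟨h', he⟩ := Cfsg.Agent.Lib.ClassMax.conj_tv g' a₀ b₀ hab₀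
    have ha' : (g' : Matrix ι ι F) *ᵥ a₀ ≠ 0 := by
      intro h0
      apply ha₀
      have h1 : ((g'⁻¹ : GL ι F) : Matrix ι ι F) *ᵥ ((g' : Matrix ι ι F) *ᵥ a₀) = a₀ := by
        rw [mulVec_mulVec, ← Units.val_mul, inv_mul_cancel, Units.val_one, one_mulVec]
      rw [← h1, h0, mulVec_zero]
    have hb' : b₀ ᵥ* ((g'⁻¹ : GL ι F) : Matrix ι ι F) ≠ 0 := by
      intro h0
      apply hb₀
      have h1 : (b₀ ᵥ* ((g'⁻¹ : GL ι F) : Matrix ι ι F)) ᵥ* (g' : Matrix ι ι F) = b₀ := by
        rw [vecMul_vecMul, ← Units.val_mul, inv_mul_cancel, Units.val_one, vecMul_one]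
      rw [← h1, h0, zero_vecMul]
    refine ⟨⟨⟨_, _⟩, ha', hb', h'⟩, ?_⟩
    rw [ConjAct.smul_def]
    exact he.symm
  · rintro ⟨⟨⟨a', b'⟩, ha', hb', hab'⟩, rfl⟩
    obtain ⟨⟨a₀, b₀⟩, ha₀, hb₀, hab₀⟩ := p₀
    simp only at ha₀ hb₀ hab₀ ha' hb' hab'
    obtain ⟨G, hG1, hG2⟩ := exists_GL_of_pairs ha₀ ha' hb₀ hb' hab₀ hab'
    refine ⟨ConjAct.toConjAct G, ?_⟩
    rw [ConjAct.smul_def]
    simp only [ConjAct.ofConjAct_toConjAct]
    have h1 := mul_one_add_vecMulVec hG1 hG2
    rw [mul_inv_eq_iff_eq_mul]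
    apply Units.ext
    exact h1

/-- The number of transvections times `q - 1` is the number of pairs. -/
theorem card_orbit_mul [Fintype F] (p₀ : PairSet ι F) :
    (MulAction.orbit (ConjAct (GL ι F)) (pairTv p₀)).ncard * (Fintype.card F - 1) = Nat.card (PairSet ι F) := by
  classical
  rw [orbit_pairTv]
  rw [Nat.card_eq_fintype_card, ← Finset.card_univ (α := PairSet ι F), Finset.card_eq_sum_card_image (pairTv (ι := ι) (F := F)) Finset.univ]
  have h1 : ∀ y ∈ Finset.univ.image (pairTv (ι := ι) (F := F)),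
      (Finset.univ.filter (fun p : PairSet ι F => pairTv p = y)).card = Fintype.card F - 1 := by
    intro y hy
    obtain ⟨p, -, rfl⟩ := Finset.mem_image.1 hy
    rw [← card_fiber_pairTv p, Nat.card_eq_fintype_card, Fintype.card_subtype]
  rw [Finset.sum_congr rfl h1, Finset.sum_const, smul_eq_mul]
  congr 1
  rw [← Set.image_univ, ← Finset.coe_univ, ← Finset.coe_image, Set.ncard_coe_finset]

/-- Order of the centraliser of a transvection, as a product with the number of pairs. -/
theorem card_centralizer_mul [Fintype F] (p₀ : PairSet ι F) :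
    Nat.card (Subgroup.centralizer ({pairTv p₀} : Set (GL ι F))) * Nat.card (PairSet ι F) =
      Nat.card (GL ι F) * (Fintype.card F - 1) := by
  rw [← card_orbit_mul p₀, ← mul_assoc]
  congr 1
  rw [Subgroup.nat_card_centralizer_nat_card_stabilizer, ← MulAction.index_stabilizer, Subgroup.card_mul_index]
  rfl

/-- The arithmetic of the order of the general linear group. -/
theorem prod_card_GL_arith (q m : ℕ) (hq : 1 ≤ q) :
    ∏ i : Fin (m + 2), (q ^ (m + 2) - q ^ (i : ℕ)) =
      (q ^ (m + 2) - 1) * (q ^ (m + 1) - 1) * (q ^ (2 * m + 1) * ∏ i : Fin m, (q ^ m - q ^ (i : ℕ))) := by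
  rw [Fin.prod_univ_succ, Fin.prod_univ_succ]
  simp only [Fin.val_zero, pow_zero, Fin.val_succ, pow_one]
  have h1 : q ^ (m + 2) - q ^ (0 + 1) = q * (q ^ (m + 1) - 1) := by
    rw [Nat.mul_sub, mul_one, zero_add, pow_one]
    congr 1
    ring
  have h2 : ∀ i : Fin m, q ^ (m + 2) - q ^ ((i : ℕ) + 1 + 1) = q ^ 2 * (q ^ m - q ^ (i : ℕ)) := by
    intro i
    rw [Nat.mul_sub]
    congr 1 <;> ring
  rw [h1, Finset.prod_congr rfl (fun i _ => h2 i), Finset.prod_mul_distrib, Finset.prod_const, Finset.card_univ,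
    Fintype.card_fin]
  ring

end Cfsg.Agent.Lib.Transv
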